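import Mathlib
import Cfsg.Agent.H191.SN.Rgd
import Cfsg.Agent.H38.SN.Defs

/-!
# The engine without solvability of `B` (helper191, S3831 [D0])

* `exists_V_rad` : a minimal overgroup `M` of `B` whose radical is not contained in `B` has a regular abelian section;
* `eq_one_of_RN'`, `eq_one_of_rgd_gen'` : `radIn P_i ≤ B` instead of "`B` is solvable, `P_i` is not solvable";
* `radIn_le_three`, `radIn_le_two` : `radIn P_i ≤ B` (`|X_i| ≥ 4`, `r = 3`; `TwoInv (X_i)`, `r = 2`);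
* `g3_of_hasAb_of` : `HasAb 3 K → G3 K` (helper38's `D0`).
-/

set_option autoImplicit false
set_option linter.unusedSectionVars false

namespace Cfsg.Agent.H191.SN

open Cfsg Subgroup Cfsg.Agent.H459.Rad Cfsg.Agent.H459.Gallery Cfsg.Agent.H459.NonEll Cfsg.Agent.H459.Iface
open Cfsg.Agent.H459 Cfsg.Agent.H459.RgdRad Cfsg.Agent.H21.SN Cfsg.Agent.H959.Rad3.Gal
open Cfsg.Agent.Schreier.BNSch Cfsg.Agent.FixBN Cfsg.Agent.H459.SolNode
open Cfsg.Agent.SignalizersComponents.ComponentExists (isSolvable_of_le)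
open scoped commutatorElement

universe u

section BN

variable {K : Type*} [Group K] [Finite K]

theorem iv_radIn {y : MulAut K} {M : Subgroup K} (hy : Iv y M) : Iv y (radIn M) := by
  have h1 := radIn_map (y : K ≃* K) (M := M)
  rw [show (M.map (y : K ≃* K).toMonoidHom) = M from hy.map_eq] at h1
  exact iv_of_map_eq h1

theorem exists_V_rad {B M : Subgroup K} (hB : B ≤ M) (hmax : ∀ L, B < L → L ≤ M → L = M)
    (hrad : ¬ radIn M ≤ B) : ∃ V, Sec B M V := by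
  classical
  have hex : ∃ n, dser (radIn M) n ≤ B := by
    obtain ⟨n, hn⟩ := exists_dser_bot (radIn_solvable M)
    exact ⟨n, by rw [hn]; exact bot_le⟩
  obtain ⟨k, hk⟩ : ∃ k, Nat.find hex = k + 1 := by
    rcases Nat.eq_zero_or_pos (Nat.find hex) with h | h
    · exfalso
      have h1 := Nat.find_spec hex
      rw [h] at h1
      exact hrad h1
    · exact ⟨Nat.find hex - 1, by omega⟩
  set V := dser (radIn M) k with hV
  have hVB : ¬ V ≤ B := Nat.find_min hex (by omega)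
  have hcomm : ⁅V, V⁆ ≤ B := by
    have h1 := Nat.find_spec hex
    rw [hk] at h1
    exact h1
  have hle : V ≤ M := (dser_le _ k).trans (radIn_le M)
  have hcj : ∀ m ∈ M, ∀ v ∈ V, m * v * m⁻¹ ∈ V := fun m hm v hv => iv_dser (iv_radIn (iv_conj hm)) k v hv
  have hcm : ∀ v ∈ V, ∀ w ∈ V, v * w * v⁻¹ * w⁻¹ ∈ B := fun v hv w hw =>
    hcomm (Subgroup.commutator_mem_commutator hv hw)
  have hmul : ∀ m ∈ M, ∃ v ∈ V, ∃ b ∈ B, m = v * b := by
    have h1 : V ⊔ B = M := by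
      refine hmax _ (lt_of_le_of_ne le_sup_right fun h => hVB ?_) (sup_le hle hB)
      rw [h]; exact le_sup_left
    have h2 : B ≤ normalizer (V : Set K) := by
      intro b hb
      rw [Subgroup.mem_normalizer_iff_map_conj_eq]
      refine Subgroup.eq_of_le_of_card_ge ?_ (le_of_eq (Subgroup.card_map_of_injective
        (K := V) (MulAut.conj b).injective).symm)
      rintro _ ⟨a, ha, rfl⟩
      exact hcj b (hB hb) a ha
    intro m hm
    have h3 : m ∈ ((V ⊔ B : Subgroup K) : Set K) := by rw [h1]; exact hm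
    rw [Subgroup.coe_mul_of_right_le_normalizer_left _ _ h2, Set.mem_mul] at h3
    obtain ⟨v, hv, b, hb, e⟩ := h3
    exact ⟨v, hv, b, hb, e.symm⟩
  refine ⟨V, hle, hcj, fun y hy => iv_dser (iv_radIn hy) k, hVB, ?_, hcm, hmul⟩
  intro m hm w hw hwB
  obtain ⟨v, hv, b, hb, rfl⟩ := hmul m hm
  have h1 : b * w * b⁻¹ ∈ V := hcj b (hB hb) w hw
  have h2 : b * w * b⁻¹ ∈ B := mul_mem (mul_mem hb hwB) (inv_mem hb)
  have h3 : v * b * w * (v * b)⁻¹ = (v * (b * w * b⁻¹) * v⁻¹ * (b * w * b⁻¹)⁻¹) * (b * w * b⁻¹) := by group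
  rw [h3]
  exact mul_mem (hcm v hv _ h1) h2

variable (P : BNPair K)

theorem rad_le_B' (hrad : ∀ s ∈ P.S, radIn (P.parabolic {s}) ≤ P.B) {L : Set K} (hL : L ⊆ P.S) :
    radIn (P.parabolic L) ≤ P.B := by
  set N := radIn (P.parabolic L) with hN
  have hBL := B_le_parabolic P L
  have hBn : P.B ≤ normalizer (N : Set K) := by
    intro b hb
    rw [Subgroup.mem_normalizer_iff_map_conj_eq]
    refine Subgroup.eq_of_le_of_card_ge ?_ (le_of_eq (Subgroup.card_map_of_injective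
      (K := N) (MulAut.conj b).injective).symm)
    rintro _ ⟨a, ha, rfl⟩
    exact radIn_conj_mem (hBL hb) ha
  obtain ⟨J, hJ, hJe⟩ := Cfsg.Agent.S0311.result P (N ⊔ P.B) le_sup_right
  rcases Set.eq_empty_or_nonempty J with h0 | ⟨s, hs⟩
  · rw [h0, parabolic_empty] at hJe
    rw [← hJe]
    exact le_sup_left
  exfalso
  have hsS := hJ hs
  have h1 : s ∈ N ⊔ P.B := by
    rw [hJe]
    exact (le_sup_right : closure J ≤ _) (subset_closure hs)
  have h2 : s ∈ ((N ⊔ P.B : Subgroup K) : Set K) := h1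
  rw [Subgroup.coe_mul_of_right_le_normalizer_left _ _ hBn, Set.mem_mul] at h2
  obtain ⟨v, hv, b, hb, e⟩ := h2
  have hsL : s ∈ P.parabolic L := by
    have h3 : N ⊔ P.B ≤ P.parabolic L := sup_le (radIn_le _) hBL
    exact h3 h1
  have hPs : P.parabolic {s} ≤ P.parabolic L := by
    refine sup_le hBL ?_
    rw [closure_le, Set.singleton_subset_iff]
    exact hsL
  have h3 : v ∈ P.parabolic {s} := by
    have : v = s * b⁻¹ := by rw [← e]; group
    rw [this]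
    exact mul_mem (mem_parabolic_self P s) (inv_mem (B_le_parabolic P _ hb))
  have h4 : v ∈ P.B := hrad s hsS (radIn_inf_le hPs ⟨hv, h3⟩)
  exact not_mem_B P hsS (by rw [← e]; exact mul_mem h4 hb)

/-- **radicals of the nodes in `B`**: `RN x`, `x ^ 3 = 1` fixing `B` up to conjugation is trivial. -/
theorem eq_one_of_RN' (hcore : P.B.normalCore = ⊥) {x : MulAut K} (h : RN x) (hxp : x ^ 3 = 1)
    (hrad : ∀ s ∈ P.S, radIn (P.parabolic {s}) ≤ P.B)
    (hO : ∀ y : MulAut K, y ^ 3 = 1 → Iv y P.B → ∀ s ∈ P.S, ∃ O : Set K, O ⊆ P.S ∧ s ∈ O ∧ Iv y (P.parabolic O) ∧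
      NoS3 (P.parabolic O))
    {g₀ : K} (hg₀ : Iv (cx x g₀) P.B) : x = 1 := by
  -- nodes
  have hfix : ∀ y : MulAut K, RN y → y ^ 3 = 1 → Iv y P.B → ∀ s ∈ P.S, ∀ k ∈ P.parabolic {s}, k⁻¹ * y k ∈ P.B := by
    intro y hy hy3 hyB s hs k hk
    obtain ⟨O, hOS, hsO, hOy, hON⟩ := hO y hy3 hyB s hs
    exact rad_le_B' P hrad hOS (hy _ hOy hON k (parabolic_mono P (Set.singleton_subset_iff.2 hsO) hk))
  set z := cx x g₀ with hz
  have hzR : RN z := h.cx g₀
  have hz3 : z ^ 3 = 1 := cx_pow_three hxp g₀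
  have key : ∀ g : K, g⁻¹ * z g ∈ P.B → ∀ s ∈ P.S, ∀ k ∈ P.parabolic {s}, (g * k)⁻¹ * z (g * k) ∈ P.B := by
    intro g hg s hs k hk
    have h1 : Iv (cx z g) P.B := hg₀.cx hg
    have h2 := hfix (cx z g) (hzR.cx g) (cx_pow_three hz3 g) h1 s hs k hk
    rw [cx_apply'] at h2
    have h3 : (g * k)⁻¹ * z (g * k) = (k⁻¹ * ((g⁻¹ * z g) * z k * (g⁻¹ * z g)⁻¹)) * (g⁻¹ * z g) := by
      rw [map_mul]; group
    rw [h3]
    exact mul_mem h2 hg
  have hall : ∀ g : K, g⁻¹ * z g ∈ P.B := by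
    intro g
    have hg : g ∈ closure ((P.B : Set K) ∪ P.S) := by
      rw [Subgroup.closure_union, Subgroup.closure_eq, sup_closure_eq_top]
      exact mem_top g
    refine Subgroup.closure_induction_right (p := fun g _ => g⁻¹ * z g ∈ P.B) ?_ ?_ ?_ hg
    · simp
    · intro g _ y hy ih
      rcases hy with hy | hy
      · rw [map_mul]
        have : (g * y)⁻¹ * (z g * z y) = y⁻¹ * (g⁻¹ * z g) * z y := by group
        rw [this]
        exact mul_mem (mul_mem (inv_mem hy) ih) (hg₀ y hy)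
      · exact key g ih y hy y (mem_parabolic_self P y)
    · intro g _ y hy ih
      rcases hy with hy | hy
      · rw [map_mul]
        have : (g * y⁻¹)⁻¹ * (z g * z y⁻¹) = y * (g⁻¹ * z g) * z y⁻¹ := by group
        rw [this]
        exact mul_mem (mul_mem hy ih) (hg₀ _ (inv_mem hy))
      · exact key g ih y hy y⁻¹ (inv_mem (mem_parabolic_self P y))
  have h1 := eq_one P hcore hall
  have h3 : x = MulAut.conj g₀ * z * (MulAut.conj g₀)⁻¹ := by
    rw [hz]
    unfold cx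
    group
  rw [h3, h1, mul_one, mul_inv_cancel]

end BN

open CoxeterSystem Cfsg.Agent.ChevalleyStructure.CoxeterGeom Cfsg.Agent.Tits.Roots
  Cfsg.Agent.Nodes.Reps Cfsg.Agent.Nodes.BNOf Cfsg.Agent.Nodes.LeviDec Cfsg.Agent.Nodes.StabComb
  Cfsg.Agent.KFacts.RgdCharP Cfsg.Agent.KFacts.RgdVJ Cfsg.Agent.Nodes.OppDec Cfsg.Agent.Nodes.Bruhat
  Cfsg.Agent.KFacts.RgdLieCharP

variable {G : Type u} [Group G] [Finite G] {I : Type*} [Fintype I] [DecidableEq I] {M : CoxeterMatrix I} {W : Type*}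
  [Group W] {cs : CoxeterSystem M W} {C : I → I → ℤ} {h : IsCartan M C} {r : ℕ} {T : Subgroup G} {n : I → G}
  {X : (I → ℤ) → Subgroup G}

section

variable [Finite W]

/-- `|X_i| ≥ 4`, `r = 3`: the radical of the node is contained in `B` (`3 ^ a + 1 = l ^ m` implies `3 ^ a + 1 ≤ 4`) -/
theorem radIn_le_three {T : Subgroup G} {n : I → G} {X : (I → ℤ) → Subgroup G} (R : RGD cs h 3 T n X)
    (hgen : RGD.B cs h T X ⊔ NN cs R.nsys = ⊤) (i : I) (h4 : 4 ≤ Nat.card (X (sr i))) :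
    radIn ((R.bnPair hgen).parabolic {n i}) ≤ (R.bnPair hgen).B := by
  have hf3 : Fact (Nat.Prime 3) := ⟨Nat.prime_three⟩
  set P := R.bnPair hgen with hP
  by_contra hrad
  have hs : n i ∈ P.S := mem_S R hgen
  obtain ⟨V, S⟩ := exists_V_rad (B_le_parabolic P _) (max_node P hs) hrad
  obtain ⟨l, m, hl, hlm⟩ := exists_pow S (trans_node P hs) (B_le_parabolic P _)
  have hcov : ∀ b ∈ P.B, ∃ u ∈ RGD.Sup X (RGD.Pos cs h), u⁻¹ * b ∈ P.N := by
    intro b hb
    obtain ⟨u, hu, hT⟩ := NodeRGD.cover R hb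
    exact ⟨u, hu, ⟨1, rp_of_mem hT⟩⟩
  obtain ⟨a, ha⟩ := index_node P (r := 3) (U := RGD.Sup X (RGD.Pos cs h)) RGD.U_le_B R.isPGroup_Upos hcov hs
  have h5 := le_index R hgen i
  rw [← hP] at h5
  have h1 : Even (3 ^ a + 1) := (Odd.pow (by decide)).add_one
  rw [← ha, hlm] at h1
  have h2 : 2 ∣ l ^ m := h1.two_dvd
  have h3 := (Nat.prime_dvd_prime_iff_eq Nat.prime_two hl).1 (Nat.prime_two.dvd_of_dvd_pow h2)
  subst h3
  have h6 : 3 ^ a + 1 = 2 ^ m := by rw [← ha, hlm]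
  have h7 : 5 ≤ 2 ^ m := by rw [← hlm]; omega
  have hm : 3 ≤ m := by
    by_contra hcon
    have : m ≤ 2 := by omega
    have := Nat.pow_le_pow_right (show 0 < 2 by norm_num) this
    omega
  have h8 : 8 ∣ 2 ^ m := by
    have := Nat.pow_dvd_pow 2 hm
    exact this
  have h9 : 3 ^ a % 8 = 1 ∨ 3 ^ a % 8 = 3 := by
    clear ha h1 h2 h6 h7 hm h8 hlm S
    induction a with
    | zero => left; rfl
    | succ a ih => rw [pow_succ]; omega
  omega

/-- two different involutions in `X_i`, `r = 2` -/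
theorem radIn_le_two (R : RGD cs h r T n X) (hgen : RGD.B cs h T X ⊔ NN cs R.nsys = ⊤) (i : I)
    (hT : TwoInv (X (sr i))) : radIn ((R.bnPair hgen).parabolic {n i}) ≤ (R.bnPair hgen).B := by
  set P := R.bnPair hgen with hP
  by_contra hrad
  obtain ⟨V, S⟩ := exists_V_rad (B_le_parabolic P _) (max_node P (mem_S R hgen)) hrad
  obtain ⟨u, hu, v, hv, hu1, hv1, huv, hu2, hv2⟩ := hT
  exact huv (one_involution (B_le_parabolic P _) S (RGD.X_le_B (isRoot_sr cs h i) (sr_nonneg i)) (trans_X R hgen i)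
    (fun x hx hm => faithful R i hx hm) hu hv hu2 hv2 hu1 hv1)

/-- **The engine**, general form (any `r`), with `radIn P_i ≤ B`. -/
theorem eq_one_of_rgd_gen' (R : RGD cs h r T n X) (hgen : RGD.B cs h T X ⊔ NN cs R.nsys = ⊤)
    [IsSimpleGroup G] [Fact r.Prime] [Nonempty I]
    (hPJ : ∀ J : Set I, (∀ i ∈ J, ∀ j ∈ J, i ≠ j → M i j = 2) → NoS3 ((R.bnPair hgen).parabolic (n '' J)))
    (hconn : Conn M) (hrad : ∀ i, radIn ((R.bnPair hgen).parabolic {n i}) ≤ (R.bnPair hgen).B)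
    {x : MulAut G} (hx : RN x) (hxp : x ^ 3 = 1) {J₀ : Set I} (hJ₀ : ∀ i ∈ J₀, ∀ j ∈ J₀, i ≠ j → M i j = 2) {g₀ : G}
    (hgJ : Iv (cx x g₀) ((R.bnPair hgen).parabolic (n '' J₀))) : x = 1 := by
  classical
  obtain ⟨i₀⟩ : Nonempty I := inferInstance
  set P := R.bnPair hgen with hP
  have hne : P.S.Nonempty := ⟨n i₀, i₀, rfl⟩
  have hcore := Cfsg.Agent.Tits.OfBN.normalCore_eq_bot P hne
  have hrad' : ∀ s ∈ P.S, radIn (P.parabolic {s}) ≤ P.B := by
    intro s hs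
    obtain ⟨i, rfl⟩ : ∃ i, n i = s := hs
    exact hrad i
  have hSJ : ∀ J : Set I, n '' J ⊆ P.S := by
    rintro J _ ⟨k, -, rfl⟩
    exact ⟨k, rfl⟩
  have hg₀ : Iv (cx x g₀) P.B := by
    intro b hb
    have h1 := rad_le_B' P hrad' (hSJ J₀) (hx.cx g₀ _ hgJ (hPJ J₀ hJ₀) b (B_le_parabolic P _ hb))
    have e : cx x g₀ b = b * (b⁻¹ * cx x g₀ b) := by group
    rw [e]
    exact mul_mem hb h1
  refine eq_one_of_RN' P hcore hx hxp hrad' ?_ hg₀
  intro y hy3 hyB s hs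
  obtain ⟨i, rfl⟩ : ∃ i, n i = s := hs
  obtain ⟨J, hiJ, horth, hyJ⟩ := exists_orth_orbit R hgen hconn hy3 hyB i
  exact ⟨n '' J, hSJ J, ⟨i, hiJ, rfl⟩, hyJ, hPJ J horth⟩

end

/-- **`r = 3`** -/
theorem eq_one_of_rgd_three' [Finite W] [IsSimpleGroup G] [Nonempty I] {T : Subgroup G} {n : I → G}
    {X : (I → ℤ) → Subgroup G} (R : RGD cs h 3 T n X) (hgen : RGD.B cs h T X ⊔ NN cs R.nsys = ⊤)
    (hN : ∀ (H : Type u) [Group H] [Finite H], (∃ P : Sylow 3 H, IsMulCommutative (P : Subgroup H)) → NoS3 H)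
    (hconn : Conn M) (hab : ∀ i, IsMulCommutative (X (sr i))) (h4 : ∀ i, 4 ≤ Nat.card (X (sr i)))
    {x : MulAut G} (hx : RN x) (hxp : x ^ 3 = 1) : x = 1 := by
  have hf3 : Fact (Nat.Prime 3) := ⟨Nat.prime_three⟩
  obtain ⟨i₀⟩ : Nonempty I := inferInstance
  have hne : (R.bnPair hgen).S.Nonempty := ⟨n i₀, i₀, rfl⟩
  have hcore := Cfsg.Agent.Tits.OfBN.normalCore_eq_bot (R.bnPair hgen) hne
  have hsplit := SplitRGD.split_of_rgd Fact.out R hgen hcore
  obtain ⟨U, hU⟩ := exists_sylow hsplit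
  have hNU : normalizer ((U : Subgroup G) : Set G) = RGD.B cs h T X := by rw [hU]; exact hsplit.normalizer_eq
  obtain ⟨g₀, hg₀⟩ := exists_fix_sylow (n := 1) U (x := x) (by rw [pow_one]; exact hxp)
  rw [hNU] at hg₀
  refine eq_one_of_rgd_gen' R hgen (fun J hJ => noS3_parabolic R hgen hN hab U hU hJ) hconn
    (fun i => radIn_le_three R hgen i (h4 i)) hx hxp (J₀ := ∅) (by simp) (g₀ := g₀) ?_
  rw [Set.image_empty, parabolic_empty]
  exact hg₀

/-- **helper38's `D0`** -/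
theorem g3_of_hasAb_of
    (hN : ∀ (H : Type) [Group H] [Finite H], (∃ P : Sylow 3 H, IsMulCommutative (P : Subgroup H)) → NoS3 H)
    (K : Type) [Group K] [Finite K] [IsSimpleGroup K] (hK : Cfsg.Agent.H38.SN.HasAb 3 K) : G3 K := by
  intro x hx _ hR
  have hf3 : Fact (Nat.Prime 3) := ⟨Nat.prime_three⟩
  obtain ⟨l, M, A, h, T, n, X, R, F, hW, hX, -, hl, hE⟩ := hK
  have hgen := Cfsg.Agent.Nodes.RGDLib.rgd_gen_of_G1 R hX
  have hI : Nonempty (Fin l) := ⟨⟨0, by omega⟩⟩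
  have hne : (R.bnPair hgen).S.Nonempty := ⟨n ⟨0, by omega⟩, ⟨0, by omega⟩, rfl⟩
  have hcore := Cfsg.Agent.Tits.OfBN.normalCore_eq_bot (R.bnPair hgen) hne
  have hsplit := SplitRGD.split_of_rgd Fact.out R hgen hcore
  obtain ⟨U, hU⟩ := exists_sylow hsplit
  have hNU : normalizer ((U : Subgroup K) : Set K) = RGD.B M.toCoxeterSystem h T X := by
    rw [hU]; exact hsplit.normalizer_eq
  have hc : ∃ a b : K, a * b ≠ b * a := by
    by_contra hcon
    push Not at hcon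
    refine not_mem_B (R.bnPair hgen) (mem_S R hgen (i := ⟨0, by omega⟩)) ?_
    show n ⟨0, by omega⟩ ∈ RGD.B M.toCoxeterSystem h T X
    rw [← hNU, Subgroup.mem_normalizer_iff]
    intro z
    rw [hcon, inv_mul_cancel_left]
  have hc' := Cfsg.Agent.KFacts.RgdLieCharP.center_eq_bot hc
  have h1 := eq_one_of_rgd_three' R hgen hN (conn_of_simple R hX hc')
    (fun i => ⟨⟨fun a b => Subtype.ext ((hE i).2 a a.2 b b.2)⟩⟩) (fun i => (hE i).1) hR
    (by rw [← hx]; exact pow_orderOf_eq_one x)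
  rw [h1, orderOf_one] at hx
  omega

end Cfsg.Agent.H191.SN
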